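import Mathlib
import Cfsg.Agent.H436.Names
import Cfsg.Agent.S0333
import Cfsg.Agent.OddCyclic.ClaimC.SzIso

/-!
# TEAM ELUSIVE: `Sz(8)` is not a section of a linear group of dimension `≤ 11` over the field of 3 elements

`no_sz8` : `S` named `Sz(8)` is not `P / (P ∩ scalars)`, `P ≤ GL(ι, F)`, `|F| = 3`, `|ι| ≤ 11`: an element of order `13`
is conjugate in `S` to its power with an exponent of order `4` mod `13`, so all the twelve primitive roots are
eigenvalues.
-/

set_option autoImplicit false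

namespace Cfsg.Agent.H262.ElSurv

open Cfsg Cfsg.Agent.OrdDiv Cfsg.Agent.H436 Polynomial

/-- all twelve primitive thirteenth roots of unity are eigenvalues -/
theorem twelve_le {ι : Type*} [Fintype ι] [DecidableEq ι] {F : Type*} [Field F] [Fintype F]
    (hF : Fintype.card F = 3) {x g : Matrix ι ι F} {k : ℕ} (hk : k = 5 ∨ k = 8) (hg : IsUnit g.det)
    (hx : x ^ 13 = 1) (hx1 : x ≠ 1) (h : g * x = x ^ k * g) : 12 ≤ Fintype.card ι := by
  classical
  have : CharP F 3 := by
    obtain ⟨p, hp⟩ := CharP.exists F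
    have := Fact.mk (CharP.char_is_prime F p)
    obtain ⟨n, hn, hc⟩ := FiniteField.card F p
    rw [hF] at hc
    have h1 : p ∣ 3 := by rw [hc]; exact dvd_pow_self p n.ne_zero
    have h2 := (Nat.prime_dvd_prime_iff_eq hn Nat.prime_three).1 h1
    rwa [h2] at hp
  have := Fact.mk Nat.prime_three
  let K := AlgebraicClosure F
  have : CharP K 3 := charP_of_injective_algebraMap (algebraMap F K).injective 3
  let p := minpoly F x
  have hint : IsIntegral F x := Matrix.isIntegral x
  have hp0 : p ≠ 0 := minpoly.ne_zero hint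
  -- `p ∣ p (X ^ k)`
  have hpow : ∀ q : F[X], aeval x q = 0 → aeval (x ^ k) q = 0 := by
    intro q hq
    have h1 : aeval (x ^ k) q * g = g * aeval x q := by
      clear hq
      induction q using Polynomial.induction_on' with
      | add a b ha hb => rw [map_add, map_add, add_mul, mul_add, ha, hb]
      | monomial n a =>
        rw [aeval_monomial, aeval_monomial]
        have h2 : ∀ n : ℕ, g * x ^ n = (x ^ k) ^ n * g := by
          intro n
          induction n with
          | zero => simp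
          | succ n ih => rw [pow_succ, ← mul_assoc, ih, mul_assoc, h, ← mul_assoc, ← pow_succ]
        rw [mul_assoc, ← h2 n, ← mul_assoc, ← mul_assoc, Algebra.commutes a g]
    rw [hq, mul_zero] at h1
    have h2 : aeval (x ^ k) q * g * g⁻¹ = 0 := by rw [h1, zero_mul]
    rwa [mul_assoc, Matrix.mul_nonsing_inv g hg, mul_one] at h2
  have hpk : p ∣ expand F k p := by
    apply minpoly.dvd
    rw [expand_aeval]
    exact hpow p (minpoly.aeval F x)
  -- the roots
  let R : Set K := {l | aeval l p = 0}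
  have hRk : ∀ l ∈ R, l ^ k ∈ R := by
    intro l hl
    obtain ⟨q, hq⟩ := hpk
    change aeval (l ^ k) p = 0
    rw [← expand_aeval, hq, map_mul, show aeval l p = 0 from hl, zero_mul]
  have hR3 : ∀ l ∈ R, l ^ 3 ∈ R := by
    intro l hl
    have h1 : expand F 3 p = p ^ 3 := by
      have h2 := FiniteField.expand_card (K := F) p
      rwa [hF] at h2
    change aeval (l ^ 3) p = 0
    rw [← expand_aeval, h1, map_pow, show aeval l p = 0 from hl, zero_pow (by norm_num)]
  -- a root `≠ 1`
  have hdiv : p ∣ X ^ 13 - 1 := by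
    apply minpoly.dvd
    rw [map_sub, map_pow, aeval_X, hx, map_one, sub_self]
  have hsep : (X ^ 13 - 1 : F[X]).Separable := by
    apply separable_X_pow_sub_C (1 : F) _ one_ne_zero |> fun h => by simpa using h
    intro h0
    have h1 : ((13 : ℕ) : F) = 1 := by
      have : ((13 : ℕ) : F) = ((3 * 4 + 1 : ℕ) : F) := by norm_num
      rw [this, Nat.cast_add, Nat.cast_mul, CharP.cast_eq_zero F 3]
      simp
    have h2 : ((13 : ℕ) : F) = 0 := by exact_mod_cast h0
    rw [h1] at h2
    exact one_ne_zero h2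
  have hpsep : p.Separable := hsep.of_dvd hdiv
  have h13 : ∀ l ∈ R, l ^ 13 = 1 := by
    intro l hl
    obtain ⟨q, hq⟩ := hdiv
    have h1 : aeval l (X ^ 13 - 1 : F[X]) = 0 := by
      rw [hq, map_mul, show aeval l p = 0 from hl, zero_mul]
    rw [map_sub, map_pow, aeval_X, map_one, sub_eq_zero] at h1
    exact h1
  obtain ⟨l, hl, hl1⟩ : ∃ l ∈ R, l ≠ 1 := by
    by_contra hcon
    push Not at hcon
    apply hx1
    have hspl : (p.map (algebraMap F K)).Splits := IsAlgClosed.splits _
    have h1 : p.map (algebraMap F K) ∣ X - 1 := by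
      have hsq : (p.map (algebraMap F K)).Separable := hpsep.map
      have h2 := hspl.eq_prod_roots
      have h3 : (p.map (algebraMap F K)).roots ≤ {1} := by
        rw [Multiset.le_iff_subset (nodup_roots hsq)]
        intro l hl
        rw [mem_roots', IsRoot.def, eval_map_algebraMap] at hl
        rw [Multiset.mem_singleton]
        exact hcon l hl.2
      rw [h2]
      have h4 : (p.map (algebraMap F K)).leadingCoeff = 1 := by
        rw [leadingCoeff_map, minpoly.monic hint, map_one]
      rw [h4, map_one, one_mul]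
      calc (Multiset.map (fun a => X - C a) (p.map (algebraMap F K)).roots).prod
          ∣ (Multiset.map (fun a => X - C a) {(1 : K)}).prod :=
            Multiset.prod_dvd_prod_of_le (Multiset.map_le_map h3)
        _ = X - 1 := by simp
    have h5 : p ∣ X - 1 := by
      rw [← Polynomial.map_dvd_map' (algebraMap F K)]
      simpa using h1
    obtain ⟨q, hq⟩ := h5
    have h6 : aeval x (X - 1 : F[X]) = 0 := by
      rw [hq, map_mul, minpoly.aeval, zero_mul]
    rw [map_sub, aeval_X, map_one, sub_eq_zero] at h6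
    exact h6
  have := Fact.mk (show Nat.Prime 13 by norm_num)
  have hord : orderOf l = 13 := orderOf_eq_prime (h13 l hl) hl1
  -- twelve roots
  have hall : ∀ a b : ℕ, l ^ (3 ^ a * k ^ b) ∈ R := by
    intro a b
    induction a with
    | zero =>
      rw [pow_zero, one_mul]
      induction b with
      | zero => simpa using hl
      | succ b ih => rw [pow_succ, pow_mul]; exact hRk _ ih
    | succ a ih =>
      rw [show 3 ^ (a + 1) * k ^ b = 3 ^ a * k ^ b * 3 by ring, pow_mul]
      exact hR3 _ ih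
  have hmod : ∀ n j : ℕ, n % 13 = j % 13 → l ^ n ∈ R → l ^ j ∈ R := by
    intro n j h1 h2
    have h3 : l ^ j = l ^ n := by
      rw [← pow_mod_orderOf l j, ← pow_mod_orderOf l n, hord, h1]
    rwa [h3]
  have hall' : ∀ j ∈ Finset.Icc 1 12, l ^ j ∈ R := by
    intro j hj
    have h0 := fun a b => hall a b
    have hex : ∃ a b : ℕ, (3 ^ a * k ^ b) % 13 = j % 13 := by
      rw [Finset.mem_Icc] at hj
      rcases hk with rfl | rfl
      · have : ∀ j ∈ Finset.Icc 1 12, ∃ a ∈ Finset.range 3, ∃ b ∈ Finset.range 4, (3 ^ a * 5 ^ b) % 13 = j % 13 := by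
          decide
        obtain ⟨a, -, b, -, h⟩ := this j (Finset.mem_Icc.2 hj)
        exact ⟨a, b, h⟩
      · have : ∀ j ∈ Finset.Icc 1 12, ∃ a ∈ Finset.range 3, ∃ b ∈ Finset.range 4, (3 ^ a * 8 ^ b) % 13 = j % 13 := by
          decide
        obtain ⟨a, -, b, -, h⟩ := this j (Finset.mem_Icc.2 hj)
        exact ⟨a, b, h⟩
    obtain ⟨a, b, h⟩ := hex
    exact hmod _ _ h (h0 a b)
  have hinj : Set.InjOn (fun j : ℕ => l ^ j) (Finset.Icc 1 12) := by
    intro i hi j hj hij
    rw [Finset.coe_Icc, Set.mem_Icc] at hi hj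
    refine (pow_injOn_Iio_orderOf (x := l)) ?_ ?_ hij
    · rw [Set.mem_Iio, hord]; omega
    · rw [Set.mem_Iio, hord]; omega
  have hsub : (Finset.Icc 1 12).image (fun j : ℕ => l ^ j) ⊆ (p.map (algebraMap F K)).roots.toFinset := by
    intro y hy
    rw [Finset.mem_image] at hy
    obtain ⟨j, hj, rfl⟩ := hy
    rw [Multiset.mem_toFinset, mem_roots', IsRoot.def, eval_map_algebraMap]
    exact ⟨(Polynomial.map_ne_zero_iff (algebraMap F K).injective).2 hp0, hall' j hj⟩
  have h1 := Finset.card_le_card hsub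
  rw [Finset.card_image_of_injOn hinj, Nat.card_Icc] at h1
  have h2 : (p.map (algebraMap F K)).roots.toFinset.card ≤ p.natDegree := by
    refine (Multiset.toFinset_card_le _).trans ((card_roots' _).trans ?_)
    rw [natDegree_map]
  have h3 : p.natDegree ≤ Fintype.card ι := by
    have h4 := Matrix.minpoly_dvd_charpoly x
    have h5 := natDegree_le_of_dvd h4 (Matrix.charpoly_monic x).ne_zero
    rwa [Matrix.charpoly_natDegree_eq_dim] at h5
  omega

/-- an element of order `13` conjugate to its fifth or eighth power -/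
theorem exists_conj {G : Type*} [Group G] [Finite G] (U : Subgroup G) (hU : Nat.card U = 13)
    (hc : ∀ u ∈ U, u ≠ 1 → Subgroup.centralizer {u} = U)
    (hn : Nat.card (Subgroup.normalizer (U : Set G)) = 52) :
    ∃ (u n : G) (k : ℕ), u ^ 13 = 1 ∧ u ≠ 1 ∧ (k = 5 ∨ k = 8) ∧ n * u = u ^ k * n := by
  classical
  have := Fact.mk (show Nat.Prime 13 by norm_num)
  have hcyc : IsCyclic U := isCyclic_of_prime_card hU
  obtain ⟨u, hu⟩ := hcyc.exists_generator
  have hu13 : orderOf (u : G) = 13 := by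
    rw [Subgroup.orderOf_coe, orderOf_eq_card_of_forall_mem_zpowers hu, hU]
  have hu1 : (u : G) ≠ 1 := by
    intro h
    rw [h, orderOf_one] at hu13
    omega
  let N := Subgroup.normalizer (U : Set G)
  have hUN : U ≤ N := Subgroup.le_normalizer
  -- powers
  have hpow : ∀ n ∈ N, ∃ k : ℕ, k < 13 ∧ n * u * n⁻¹ = (u : G) ^ k := by
    intro n hn
    have h1 : n * u * n⁻¹ ∈ U := (Subgroup.mem_normalizer_iff.1 hn u).1 u.2
    obtain ⟨z, hz⟩ := (mem_powers_iff_mem_zpowers (x := u) (y := ⟨_, h1⟩)).2 (hu _)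
    refine ⟨z % 13, Nat.mod_lt _ (by norm_num), ?_⟩
    have h2 := congrArg Subtype.val hz
    simp only [SubmonoidClass.coe_pow] at h2
    rw [← h2, ← hu13, pow_mod_orderOf]
  -- fourth powers
  have h4 : ∀ n ∈ N, n ^ 4 ∈ U := by
    intro n hn'
    have hnorm : (U.subgroupOf N).Normal := Subgroup.normal_in_normalizer
    have h1 : Nat.card (N ⧸ U.subgroupOf N) = 4 := by
      have h2 := Subgroup.card_eq_card_quotient_mul_card_subgroup (U.subgroupOf N)
      rw [hn, Nat.card_congr (Subgroup.subgroupOfEquivOfLe hUN).toEquiv, hU] at h2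
      omega
    have h3 : ((⟨n, hn'⟩ : N) : N ⧸ U.subgroupOf N) ^ 4 = 1 := by
      rw [← h1]; exact pow_card_eq_one'
    rw [← QuotientGroup.mk_pow, QuotientGroup.eq_one_iff, Subgroup.mem_subgroupOf] at h3
    exact h3
  by_contra hcon
  push Not at hcon
  have hval : ∀ n ∈ N, n * u * n⁻¹ = u ∨ n * u * n⁻¹ = (u : G)⁻¹ := by
    intro n hn'
    obtain ⟨k, hk, h⟩ := hpow n hn'
    have hkn : ∀ j : ℕ, n ^ j * u * (n ^ j)⁻¹ = (u : G) ^ (k ^ j) := by
      intro j
      induction j with
      | zero => simp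
      | succ j ih =>
        have h5 : ∀ i : ℕ, n * (u : G) ^ i * n⁻¹ = ((u : G) ^ i) ^ k := by
          intro i
          rw [← conj_pow, h, ← pow_mul, ← pow_mul, mul_comm]
        rw [pow_succ', mul_inv_rev, show n * n ^ j * ↑u * ((n ^ j)⁻¹ * n⁻¹) = n * (n ^ j * ↑u * (n ^ j)⁻¹) * n⁻¹ by
          group, ih, h5, ← pow_mul, ← pow_succ]
    have h6 : (u : G) ^ (k ^ 4) = u := by
      rw [← hkn 4]
      have h7 : n ^ 4 ∈ Subgroup.centralizer {(u : G)} := by
        rw [hc u u.2 hu1]; exact h4 n hn'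
      rw [Subgroup.mem_centralizer_singleton_iff] at h7
      rw [h7, mul_assoc, mul_inv_cancel, mul_one]
    have h8 : k ^ 4 % 13 = 1 := by
      have h9 : (u : G) ^ (k ^ 4) = (u : G) ^ 1 := by rw [h6, pow_one]
      rw [pow_inj_mod, hu13] at h9
      exact h9
    have h10 : k = 1 ∨ k = 12 ∨ k = 5 ∨ k = 8 := by
      have : ∀ k < 13, k ^ 4 % 13 = 1 → k = 1 ∨ k = 12 ∨ k = 5 ∨ k = 8 := by decide
      exact this k hk h8
    have h13 : (u : G) ^ 13 = 1 := by rw [← hu13]; exact pow_orderOf_eq_one _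
    have hmv : n * u = (u : G) ^ k * n := by rw [← h]; group
    rcases h10 with rfl | rfl | h10 | h10
    · left; rw [h, pow_one]
    · right
      rw [h, eq_inv_iff_mul_eq_one, ← pow_succ]
      exact h13
    · exact absurd hmv (hcon u n k h13 hu1 (Or.inl h10))
    · exact absurd hmv (hcon u n k h13 hu1 (Or.inr h10))
  -- counting
  have : Fintype N := Fintype.ofFinite _
  let f : N → G := fun n => n * u * (n : G)⁻¹
  have h1 := Finset.card_le_mul_card_image (f := f) (Finset.univ : Finset N) 13 ?_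
  · have h2 : ((Finset.univ : Finset N).image f).card ≤ 2 := by
      refine (Finset.card_le_card (t := {(u : G), (u : G)⁻¹}) ?_).trans Finset.card_le_two
      intro y hy
      rw [Finset.mem_image] at hy
      obtain ⟨n, -, rfl⟩ := hy
      rw [Finset.mem_insert, Finset.mem_singleton]
      exact hval n n.2
    rw [Finset.card_univ, ← Nat.card_eq_fintype_card, hn] at h1
    have := Nat.mul_le_mul_left 13 h2
    omega
  · intro a ha
    rw [Finset.mem_image] at ha
    obtain ⟨n0, -, rfl⟩ := ha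
    have : Fintype U := Fintype.ofFinite _
    have h2 : (Finset.univ : Finset U).card = 13 := by
      rw [Finset.card_univ, ← Nat.card_eq_fintype_card, hU]
    rw [← h2]
    refine Finset.card_le_card_of_injOn (fun n => if h : (n0 : G)⁻¹ * n ∈ U then (⟨_, h⟩ : U) else 1)
      (fun _ _ => Finset.mem_univ _) ?_
    have hmem : ∀ n : N, f n = f n0 → (n0 : G)⁻¹ * n ∈ U := by
      intro n h3
      rw [← hc u u.2 hu1, Subgroup.mem_centralizer_singleton_iff]
      have h4 : (n : G) * u * (n : G)⁻¹ = n0 * u * (n0 : G)⁻¹ := h3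
      calc (n0 : G)⁻¹ * n * u = (n0 : G)⁻¹ * (n * u * (n : G)⁻¹) * n := by group
        _ = (n0 : G)⁻¹ * (n0 * u * (n0 : G)⁻¹) * n := by rw [h4]
        _ = _ := by group
    intro n hn1 n' hn2 hnn
    rw [Finset.mem_coe, Finset.mem_filter] at hn1 hn2
    simp only [dif_pos (hmem n hn1.2), dif_pos (hmem n' hn2.2)] at hnn
    have h3 := congrArg Subtype.val hnn
    exact Subtype.ext (mul_left_cancel h3)

/-- **no `Sz(8)`.** -/
theorem no_sz8 {S : Type*} [Group S] [Finite S] (hS : IsNamed (.sz 8) S) {ι : Type*} [Fintype ι] [DecidableEq ι]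
    {F : Type*} [Field F] [Finite F] (hF : Nat.card F = 3) {P : Subgroup (GL ι F)}
    (Z : Subgroup P) [Z.Normal] (hZ : ∀ z ∈ Z, ∃ c : Fˣ, ((z : GL ι F) : Matrix ι ι F) = (c : F) • 1)
    (e : S ≃* P ⧸ Z) (hι : Fintype.card ι ≤ 11) : False := by
  classical
  have : Fintype F := Fintype.ofFinite F
  have hF' : Fintype.card F = 3 := by rw [← Nat.card_eq_fintype_card]; exact hF
  obtain ⟨E, _, _, m, hm, hE, hq, ⟨e1⟩⟩ := hS.real
  have hm1 : m = 1 := by
    have : 2 ^ 3 = 2 ^ (2 * m + 1) := by rw [← hq]; norm_num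
    have := Nat.pow_right_injective le_rfl this
    omega
  subst hm1
  obtain ⟨e2⟩ := Cfsg.Agent.OddCyclic.ClaimC.SzIso.iso (F := E) (m := 1) le_rfl (by rw [hE]; norm_num)
  have e3 : ↥(Cfsg.Sz E 1) ≃* P ⧸ Z := (e2.trans e1.symm).trans e
  obtain ⟨U, -, hU, hc, hn⟩ := Cfsg.Agent.S0333.result (F := E) (m := 1) le_rfl (by rw [hE]; norm_num) 13 (by norm_num)
  obtain ⟨u, n, k, h13, hu1, hk, hun⟩ := exists_conj U hU hc (by rw [hn])
  -- lifts
  obtain ⟨x0, hx0⟩ := QuotientGroup.mk_surjective (e3 u)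
  obtain ⟨g, hg⟩ := QuotientGroup.mk_surjective (e3 n)
  have hsq : ∀ c : Fˣ, c ^ 2 = 1 := by
    intro c
    have h1 : Fintype.card Fˣ = 2 := by rw [Fintype.card_units, hF']
    rw [← h1]; exact pow_card_eq_one
  have hZ2 : ∀ z ∈ Z, z ^ 2 = 1 := by
    intro z hz
    obtain ⟨c, hc⟩ := hZ z hz
    apply Subtype.ext
    apply Units.ext
    have h1 : (c : F) ^ 2 = 1 := by rw [← Units.val_pow_eq_pow_val, hsq c, Units.val_one]
    simp only [SubmonoidClass.coe_pow, Units.val_pow_eq_pow_val, hc, OneMemClass.coe_one, Units.val_one]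
    rw [_root_.smul_pow, one_pow, h1, one_smul]
  have hx13 : x0 ^ 13 ∈ Z := by
    rw [← QuotientGroup.eq_one_iff, QuotientGroup.mk_pow, hx0, ← map_pow, h13, map_one]
  have hx26 : x0 ^ 26 = 1 := by
    rw [show 26 = 13 * 2 by norm_num, pow_mul]; exact hZ2 _ hx13
  -- the element of order 13
  obtain ⟨x, hxd⟩ : ∃ x, x = x0 ^ 14 := ⟨_, rfl⟩
  have hx1 : x ^ 13 = 1 := by
    rw [hxd, ← pow_mul, show 14 * 13 = 26 * 7 by norm_num, pow_mul, hx26, one_pow]
  have hxm : (x : P ⧸ Z) = e3 u := by
    rw [hxd, QuotientGroup.mk_pow, hx0, ← map_pow, show (14 : ℕ) = 13 + 1 by norm_num, pow_succ, h13, one_mul]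
  have hxne : x ≠ 1 := by
    intro h
    rw [h, QuotientGroup.mk_one] at hxm
    exact hu1 (e3.injective (by rw [← hxm, map_one]))
  -- commutation up to a scalar
  have hrel : g * x * g⁻¹ * (x ^ k)⁻¹ ∈ Z := by
    rw [← QuotientGroup.eq_one_iff]
    simp only [QuotientGroup.mk_mul, QuotientGroup.mk_inv, QuotientGroup.mk_pow, hxm, hg]
    rw [← map_mul, hun, ← map_inv, ← map_mul, ← map_pow, ← map_inv, ← map_mul, ← map_one e3]
    congr 1
    group
  have hcent : ∀ z ∈ Z, ∀ y : P, z * y = y * z := by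
    intro z hz y
    obtain ⟨c, hc⟩ := hZ z hz
    apply Subtype.ext
    apply Units.ext
    simp only [Subgroup.coe_mul, Units.val_mul, hc]
    rw [smul_mul_assoc, one_mul, mul_smul_comm, mul_one]
  obtain ⟨z, hz⟩ : ∃ z, z = g * x * g⁻¹ * (x ^ k)⁻¹ := ⟨_, rfl⟩
  rw [← hz] at hrel
  have hz1 : z = 1 := by
    have h1 : z * x ^ k = g * x * g⁻¹ := by rw [hz]; group
    have h2 : (z * x ^ k) ^ 13 = 1 := by
      rw [h1, conj_pow, hx1]; group
    rw [(show Commute z (x ^ k) from hcent z hrel _).mul_pow, ← pow_mul, mul_comm k 13, pow_mul, hx1, one_pow,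
      mul_one, show 13 = 2 * 6 + 1 by norm_num, pow_succ, pow_mul, hZ2 z hrel, one_pow, one_mul] at h2
    exact h2
  have hfin : g * x = x ^ k * g := by
    have h1 : z * x ^ k = g * x * g⁻¹ := by rw [hz]; group
    rw [hz1, one_mul] at h1
    rw [h1]; group
  have hg' : g * x = x ^ k * g := hfin
  have h12 := twelve_le (ι := ι) hF' (x := ((x : GL ι F) : Matrix ι ι F)) (g := ((g : GL ι F) : Matrix ι ι F)) hk
    ((g : GL ι F).isUnit.map (Matrix.detMonoidHom)) ?_ ?_ ?_
  · omega
  · have := congrArg (fun y : P => ((y : GL ι F) : Matrix ι ι F)) hx1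
    simpa using this
  · intro h
    apply hxne
    apply Subtype.ext
    apply Units.ext
    simpa using h
  · have := congrArg (fun y : P => ((y : GL ι F) : Matrix ι ι F)) hg'
    simpa using this

end Cfsg.Agent.H262.ElSurv
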